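import Cfsg.Agent.H46.Mem
import Cfsg.Agent.H82.Chev.TorusKer

/-!
# Certificates for the kernels of the torus maps of types E (generated file)
-/

set_option autoImplicit false

namespace Cfsg.Agent.H82.Chev

open Cfsg.Lie Cfsg.Agent.H46

/-- The torus kernel of type E6. -/
def coverE6 : CoverCert := ⟨3, 0, [2, 0, 1, 0, 2, 1], [[4, 1, 3, 2, 4, 2], [3, 2, 3, 3, 4, 2], [5, 2, 5, 4, 6, 3], [6, 3, 6, 6, 8, 4], [4, 2, 4, 4, 6, 3], [2, 1, 2, 2, 3, 2]]⟩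

theorem chkCoverE6 : chkCover chevE6 tabE6 coverE6 = true := by decide +kernel

/-- The torus kernel of type E7. -/
def coverE7 : CoverCert := ⟨2, 1, [0, 1, 0, 0, 1, 0, 1], [[2, 4, 3, 4, 5, 2, 3], [2, 7, 4, 6, 8, 3, 5], [3, 8, 6, 8, 10, 4, 6], [4, 12, 8, 12, 15, 6, 9], [3, 9, 6, 9, 12, 5, 7], [2, 6, 4, 6, 8, 4, 5], [1, 3, 2, 3, 4, 2, 3]]⟩

theorem chkCoverE7 : chkCover chevE7 tabE7 coverE7 = true := by decide +kernel

/-- The torus kernel of type E8. -/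
def coverE8 : CoverCert := ⟨1, 0, [0, 0, 0, 0, 0, 0, 0, 0], [[4, 5, 7, 10, 8, 6, 4, 2], [5, 8, 10, 15, 12, 9, 6, 3], [7, 10, 14, 20, 16, 12, 8, 4], [10, 15, 20, 30, 24, 18, 12, 6], [8, 12, 16, 24, 20, 15, 10, 5], [6, 9, 12, 18, 15, 12, 8, 4], [4, 6, 8, 12, 10, 8, 6, 3], [2, 3, 4, 6, 5, 4, 3, 2]]⟩

theorem chkCoverE8 : chkCover chevE8 tabE8 coverE8 = true := by decide +kernel

end Cfsg.Agent.H82.Chev
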