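import Cfsg.Agent.H82.Chev.Simply

/-!
# Decomposition certificate of type E6 (generated file)
-/

set_option autoImplicit false
set_option maxRecDepth 100000

namespace Cfsg.Agent.H82.Chev

open Cfsg.Lie Cfsg.Agent.H46

/-- Linked decompositions of the last root of type E6. -/
def certE6 : Cert := ⟨46, 70, [
    ⟨46, 70, 39, 47, 69⟩,
    ⟨46, 70, 40, 48, 68⟩,
    ⟨46, 70, 41, 49, 67⟩,
    ⟨46, 70, 43, 50, 66⟩,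
    ⟨46, 70, 44, 51, 65⟩,
    ⟨46, 70, 45, 52, 64⟩,
    ⟨46, 70, 58, 61, 55⟩,
    ⟨46, 70, 59, 62, 54⟩,
    ⟨46, 70, 60, 63, 53⟩,
    ⟨47, 69, 44, 53, 63⟩,
    ⟨47, 69, 45, 54, 62⟩,
    ⟨47, 69, 59, 64, 52⟩,
    ⟨47, 69, 60, 65, 51⟩,
    ⟨48, 68, 45, 55, 61⟩,
    ⟨48, 68, 60, 66, 50⟩,
    ⟨50, 66, 59, 67, 49⟩,
    ⟨50, 66, 60, 68, 48⟩,
    ⟨51, 65, 60, 69, 47⟩,
    ⟨53, 63, 60, 70, 46⟩]⟩

theorem chkSimplyE6 : chkSimply chevE6 tabE6 certE6 = true := by decide +kernel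

end Cfsg.Agent.H82.Chev
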