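import Cfsg.Agent.H82.Chev.Embed

/-!
# The root system of type E6 inside that of type E8 (generated file)
-/

set_option autoImplicit false
set_option maxRecDepth 100000

namespace Cfsg.Agent.H82.Chev

open Cfsg.Lie Cfsg.Agent.H46

/-- The packed root map. -/
def embE6 : ℕ := 0xccc2bcb9b8b2afaeabaaa9a6a5a4a3a29c9998959493908f8e8d8a8988878483827f7e7b7471706d6c6b686766656261605f5c5b5a5756534d4c4b4a4946454441403d3736332d23

theorem chkEmbE6 : chkEmb chevE6 tabE6 chevE8 tabE8 embE6 = true := by decide +kernel

end Cfsg.Agent.H82.Chev
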