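import Cfsg.Agent.H46.Mem
import Cfsg.Agent.H82.Chev.TorusKer

/-!
# The torus maps of types F4 and G2 are injective (generated file)
-/

set_option autoImplicit false

namespace Cfsg.Agent.H82.Chev

open Cfsg.Lie Cfsg.Agent.H46

/-- The torus kernel of type F4. -/
def coverF4 : CoverCert := ⟨1, 0, [0, 0, 0, 0], [[2, 3, 4, 2], [3, 6, 8, 4], [2, 4, 6, 3], [1, 2, 3, 2]]⟩

theorem chkCoverF4 : chkCover chevF4 tabF4 coverF4 = true := by decide +kernel

/-- The torus kernel of type G2. -/
def coverG2 : CoverCert := ⟨1, 0, [0, 0], [[2, 3], [1, 2]]⟩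

theorem chkCoverG2 : chkCover chevG2 tabG2 coverG2 = true := by decide +kernel

end Cfsg.Agent.H82.Chev
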