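import Cfsg.Agent.H82.Chev.Simply

/-!
# Decomposition certificate of type E7 (generated file)
-/

set_option autoImplicit false
set_option maxRecDepth 100000

namespace Cfsg.Agent.H82.Chev

open Cfsg.Lie Cfsg.Agent.H46

/-- Linked decompositions of the last root of type E7. -/
def certE7 : Cert := ⟨93, 124, [
    ⟨93, 124, 73, 94, 123⟩,
    ⟨93, 124, 74, 95, 122⟩,
    ⟨93, 124, 75, 96, 121⟩,
    ⟨93, 124, 76, 97, 120⟩,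
    ⟨93, 124, 77, 98, 119⟩,
    ⟨93, 124, 83, 99, 118⟩,
    ⟨93, 124, 84, 100, 117⟩,
    ⟨93, 124, 85, 101, 116⟩,
    ⟨93, 124, 86, 102, 115⟩,
    ⟨93, 124, 87, 103, 114⟩,
    ⟨93, 124, 88, 104, 113⟩,
    ⟨93, 124, 89, 105, 112⟩,
    ⟨93, 124, 90, 106, 111⟩,
    ⟨93, 124, 91, 107, 110⟩,
    ⟨93, 124, 92, 108, 109⟩,
    ⟨94, 123, 87, 109, 108⟩,
    ⟨94, 123, 88, 110, 107⟩,
    ⟨94, 123, 89, 111, 106⟩,
    ⟨94, 123, 90, 112, 105⟩,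
    ⟨94, 123, 91, 113, 104⟩,
    ⟨94, 123, 92, 114, 103⟩,
    ⟨95, 122, 90, 115, 102⟩,
    ⟨95, 122, 91, 116, 101⟩,
    ⟨95, 122, 92, 117, 100⟩,
    ⟨96, 121, 92, 118, 99⟩,
    ⟨99, 118, 90, 119, 98⟩,
    ⟨99, 118, 91, 120, 97⟩,
    ⟨99, 118, 92, 121, 96⟩,
    ⟨100, 117, 92, 122, 95⟩,
    ⟨103, 114, 92, 123, 94⟩,
    ⟨109, 108, 92, 124, 93⟩]⟩

theorem chkSimplyE7 : chkSimply chevE7 tabE7 certE7 = true := by decide +kernel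

end Cfsg.Agent.H82.Chev
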