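import Cfsg.Agent.H82.Chev.Simply

/-!
# Decomposition certificate of type E8 (generated file)
-/

set_option autoImplicit false
set_option maxRecDepth 100000

namespace Cfsg.Agent.H82.Chev

open Cfsg.Lie Cfsg.Agent.H46

/-- Linked decompositions of the last root of type E8. -/
def certE8 : Cert := ⟨120, 238, [
    ⟨120, 238, 121, 122, 237⟩,
    ⟨120, 238, 124, 125, 236⟩,
    ⟨120, 238, 128, 129, 235⟩,
    ⟨120, 238, 133, 134, 234⟩,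
    ⟨120, 238, 139, 140, 233⟩,
    ⟨120, 238, 145, 146, 232⟩,
    ⟨120, 238, 150, 151, 231⟩,
    ⟨120, 238, 154, 155, 230⟩,
    ⟨120, 238, 157, 158, 229⟩,
    ⟨120, 238, 159, 160, 228⟩,
    ⟨120, 238, 167, 168, 225⟩,
    ⟨120, 238, 172, 173, 224⟩,
    ⟨120, 238, 176, 177, 223⟩,
    ⟨120, 238, 179, 180, 222⟩,
    ⟨120, 238, 181, 182, 221⟩,
    ⟨120, 238, 186, 187, 218⟩,
    ⟨120, 238, 189, 190, 217⟩,
    ⟨120, 238, 191, 192, 216⟩,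
    ⟨120, 238, 195, 196, 213⟩,
    ⟨120, 238, 197, 198, 212⟩,
    ⟨120, 238, 200, 201, 209⟩,
    ⟨120, 238, 205, 206, 203⟩,
    ⟨120, 238, 207, 208, 202⟩,
    ⟨120, 238, 210, 211, 199⟩,
    ⟨120, 238, 214, 215, 193⟩,
    ⟨120, 238, 219, 220, 183⟩,
    ⟨120, 238, 226, 227, 161⟩,
    ⟨122, 237, 159, 161, 227⟩,
    ⟨122, 237, 181, 183, 220⟩,
    ⟨122, 237, 191, 193, 215⟩,
    ⟨122, 237, 197, 199, 211⟩,
    ⟨122, 237, 200, 202, 208⟩,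
    ⟨122, 237, 207, 209, 201⟩,
    ⟨122, 237, 210, 212, 198⟩,
    ⟨122, 237, 214, 216, 192⟩,
    ⟨122, 237, 219, 221, 182⟩,
    ⟨122, 237, 226, 228, 160⟩,
    ⟨125, 236, 200, 203, 206⟩,
    ⟨125, 236, 210, 213, 196⟩,
    ⟨125, 236, 214, 217, 190⟩,
    ⟨125, 236, 219, 222, 180⟩,
    ⟨125, 236, 226, 229, 158⟩,
    ⟨129, 235, 214, 218, 187⟩,
    ⟨129, 235, 219, 223, 177⟩,
    ⟨129, 235, 226, 230, 155⟩,
    ⟨134, 234, 219, 224, 173⟩,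
    ⟨134, 234, 226, 231, 151⟩,
    ⟨140, 233, 226, 232, 146⟩,
    ⟨146, 232, 219, 225, 168⟩,
    ⟨146, 232, 226, 233, 140⟩,
    ⟨151, 231, 226, 234, 134⟩,
    ⟨155, 230, 226, 235, 129⟩,
    ⟨158, 229, 226, 236, 125⟩,
    ⟨160, 228, 226, 237, 122⟩,
    ⟨161, 227, 226, 238, 120⟩]⟩

theorem chkSimplyE8 : chkSimply chevE8 tabE8 certE8 = true := by decide +kernel

end Cfsg.Agent.H82.Chev
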