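import Cfsg.Agent.H82.Chev.Embed

/-!
# The root system of type E7 inside that of type E8 (generated file)
-/

set_option autoImplicit false
set_option maxRecDepth 100000

namespace Cfsg.Agent.H82.Chev

open Cfsg.Lie Cfsg.Agent.H46

/-- The packed root map. -/
def embE7 : ℕ := 0xe2dbd6d2cfcdccc8c5c3c2bfbdbcbab9b8b5b3b2b0afaeacabaaa9a7a6a5a4a3a29f9d9c9a99989695949391908f8e8d8b8a89888785848382807f7e7c7b7976747371706f6d6c6b6a68676665646261605f5e5c5b5a595756555352504d4c4b4a49484645444341403f3d3c3a3736353332302d2c2a272322201d19140d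

theorem chkEmbE7 : chkEmb chevE7 tabE7 chevE8 tabE8 embE7 = true := by decide +kernel

end Cfsg.Agent.H82.Chev
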