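import Cfsg.Agent.H82.Chev.Separate

/-!
# Separation certificate of type G2 (generated file)
-/

set_option autoImplicit false
set_option maxRecDepth 100000

namespace Cfsg.Agent.H82.Chev

open Cfsg.Lie Cfsg.Agent.H46

/-- Cocharacters and decompositions of type G2. -/
def sepG2 : SepCert := ⟨3,
  [[0, -1], [0, 1], [-1, 0], [0, -1], [0, 1], [1, 1], [-1, -1], [0, -1], [-1, 0], [1, 0], [0, -1], [0, 1]],
  [[-1, 0], [0, -1], [-1, -1], [-1, -2], [-1, -3]],
  []⟩

theorem chkSepG2 : chkSep chevG2 tabG2 sepG2 = true := by decide +kernel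

end Cfsg.Agent.H82.Chev
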