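import Cfsg.Agent.H82.Chev.Upper

/-!
# Covers of Chevalley groups inside the product with a larger Chevalley group
-/

set_option autoImplicit false

open scoped commutatorElement

namespace Cfsg.Agent.H82.Chev

open Cfsg.Lie Cfsg.Agent.H46

universe u

/-- The image of a root under the packed map `N`. -/
def embIdx (N r : ℕ) : ℕ := (N >>> (8 * r)) % 256

/-- The packed map embeds the root system with the same structure constants. -/
noncomputable def chkEmb (D : ChevalleyDatum) (T : Tab) (D' : ChevalleyDatum) (T' : Tab) (N : ℕ) : Bool :=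
  Nat.ble D.rank D'.rank &&
  (List.range D.rank).all (fun i => Nat.beq (embIdx N (D.simple i)) (D'.simple i)) &&
  (List.range D.nroots).all (fun s =>
    Nat.blt (embIdx N s) D'.nroots && Nat.beq (embIdx N (D.nroots - 1 - s)) (D'.nroots - 1 - embIdx N s) &&
    (List.range D.rank).all fun i =>
      Nat.beq (T'.refl i (embIdx N s)) (embIdx N (T.refl i s)) &&
      decide (T'.eta i (embIdx N s) = T.eta i s) &&
      decide (T'.cart D'.rank i (embIdx N s) = T.cart D.rank i s)) &&
  (List.range D.nroots).all fun r => (List.range D.nroots).all fun s =>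
    Nat.beq s r || (!(Nat.beq (embIdx N s) (embIdx N r)) && shortB T r s && shortB T' (embIdx N r) (embIdx N s) &&
      eqItems (T'.ent (embIdx N r) (embIdx N s)) ((T.ent r s).map fun e => (embIdx N e.1, e.2)))

/-- `n_{p_i}(a)` permutes root elements. -/
theorem ng_simple_mul_xg_eq {D : ChevalleyDatum} (G : Good D) {F : Type*} [Field F] {i s : ℕ} (hi : i < D.rank)
    (hs : s < D.nroots) {a : F} (ha : a ≠ 0) (t : F) :
    G.ng (D.simple i) a * G.xg s t =
      G.xg (D.reflectRoot i s) (a ^ D.cartan i (D.reflectRoot i s) * ((G.tab.eta i s : F) * t)) *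
        G.ng (D.simple i) a := by
  have hr := G.reflectRoot_lt hi hs
  rw [G.ng_eq_hg_mul a, mul_assoc, G.ng_simple_mul_xg hi hs, ← mul_assoc, G.hg_mul_xg (G.simple_lt hi) hr ha,
    G.pairing_simple hi hr, mul_assoc]

namespace RootLift

variable {D : ChevalleyDatum} {F : Type*} [Field F] {E : Type*} [Group E]
variable {G : Good D} {π : E →* GL D.Idx F} {L : ℕ → F → E} (R : RootLift G π L)

include R

theorem commutator_dec {k p q : ℕ} {e : ℤ} (h : Dec D k p q e) (t u : F) :
    ⁅L p t, L q u⁆ = L k ((e : F) * t * u) := by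
  obtain ⟨hk, hp, hq, hne, hneg, -, hct⟩ := h
  have h1 := R.comm p q hp hq hne hneg (-t) (-u)
  rw [ChevalleyDatum.commWord, hct] at h1
  simp only [List.map_cons, List.map_nil, List.prod_cons, List.prod_nil, mul_one, pow_one] at h1
  rw [neg_neg] at h1
  rw [commutatorElement_def, R.L_inv hp, R.L_inv hq, mul_assoc (L p t * L q u),
    show (e : F) * t * u = -((e : F) * t * -u) by ring, ← R.L_inv hk]
  have h2 : L q (-u) * L p (-t) = (L p t * L q u)⁻¹ := by rw [mul_inv_rev, R.L_inv hp, R.L_inv hq]
  rw [h2] at h1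
  calc L p t * L q u * (L p (-t) * L q (-u))
      = L p t * L q u * (L p (-t) * L q (-u) * L k ((e : F) * t * -u)) * (L k ((e : F) * t * -u))⁻¹ := by
        simp [mul_assoc]
    _ = _ := by rw [← h1, mul_inv_cancel, one_mul]

end RootLift

variable {D : ChevalleyDatum} {G : Good D} {D' : ChevalleyDatum} {G' : Good D'} {F : Type u} [Field F]

/-- The pairs of root elements. -/
noncomputable def pairL (G : Good D) (G' : Good D') (N : ℕ) (r : ℕ) (t : F) : GL D'.Idx F × GL D.Idx F :=
  (G'.xg (embIdx N r) t, G.xg r t)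

variable {N : ℕ}

theorem rootLift_pair (h : chkEmb D G.tab D' G'.tab N = true) :
    RootLift G (MonoidHom.snd (GL D'.Idx F) (GL D.Idx F)) (pairL G G' N) := by
  simp only [chkEmb, Bool.and_eq_true, List.all_eq_true, List.mem_range, Bool.or_eq_true, Nat.beq_eq,
    decide_eq_true_eq, Bool.not_eq_true', Nat.ble_eq, Nat.blt_eq] at h
  obtain ⟨⟨⟨hrank, hsimple⟩, hroot⟩, hpair⟩ := h
  have hneg : ∀ r, r < D.nroots → embIdx N (D.neg r) = D'.neg (embIdx N r) := fun r hr => by
    rw [G.neg_eq hr, (hroot r hr).1.2, G'.neg_eq (hroot r hr).1.1]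
  refine ⟨fun r _ t => rfl, fun r _ t u => Prod.ext (G'.xg_add _ t u) (G.xg_add r t u),
    fun r s hr hs hne hng t u => Prod.ext ?_ ?_, fun i hi a ha s s' hs hs' t t' h => ?_⟩
  · rcases hpair r hr s hs with h | ⟨⟨⟨hne', hsh⟩, hsh'⟩, hent⟩
    · exact absurd h hne
    have hne'' : embIdx N s ≠ embIdx N r := fun e => by simp [e] at hne'
    have hng' : embIdx N s ≠ D'.neg (embIdx N r) := fun e => by
      rw [← hneg r hr] at e
      rcases hpair (D.neg r) (G.neg_lt hr) s hs with h | ⟨⟨⟨h', -⟩, -⟩, -⟩
      · exact hng h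
      · simp [e] at h'
    show G'.xg (embIdx N s) u * G'.xg (embIdx N r) t = _
    rw [xg_mul_xg G' (hroot r hr).1.1 (hroot s hs).1.1 hne'' hng', Prod.fst_mul, Prod.fst_mul]
    congr 1
    rw [show ∀ l : List (GL D'.Idx F × GL D.Idx F), l.prod.1 = (l.map Prod.fst).prod from
      fun l => map_list_prod (MonoidHom.fst _ _) l]
    simp only [ChevalleyDatum.commWord, commTerms_short G hr hs hsh,
      commTerms_short G' (hroot r hr).1.1 (hroot s hs).1.1 hsh', eqItems_eq hent, List.map_map]
    rfl
  · show G.xg s u * G.xg r t = _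
    rw [xg_mul_xg G hr hs hne hng, Prod.snd_mul, Prod.snd_mul]
    congr 1
    rw [show ∀ l : List (GL D'.Idx F × GL D.Idx F), l.prod.2 = (l.map Prod.snd).prod from
      fun l => map_list_prod (MonoidHom.snd _ _) l]
    simp only [List.map_map]
    rfl
  · have hi' : i < D'.rank := lt_of_lt_of_le hi hrank
    have hnn : nn D (pairL G G' N) (D.simple i) a = (G'.ng (D'.simple i) a, G.ng (D.simple i) a) := by
      simp only [nn, pairL, Prod.mk_mul_mk, hneg _ (G.simple_lt hi), hsimple i hi]
      rfl
    rw [hnn]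
    refine Prod.ext ?_ h
    show G'.ng (D'.simple i) a * G'.xg (embIdx N s) t = G'.xg (embIdx N s') t' * G'.ng (D'.simple i) a
    have hr := G.reflectRoot_lt hi hs
    rw [ng_simple_mul_xg_eq G hi hs ha] at h
    have h2 := mul_right_cancel h
    obtain ⟨⟨hrf, heta⟩, -⟩ := (hroot s hs).2 i hi
    rw [G.refl_eq hi hs, G'.refl_eq hi' (hroot s hs).1.1] at hrf
    obtain ⟨-, hcart⟩ := (hroot _ hr).2 i hi
    rw [← G'.cartan_eq_cart (hroot _ hr).1.1 hi', ← G.cartan_eq_cart hr hi] at hcart
    rw [ng_simple_mul_xg_eq G' hi' (hroot s hs).1.1 ha, hrf, hcart, heta]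
    congr 1
    by_cases ht : t = 0
    · subst ht
      simp only [mul_zero, G.xg_zero] at h2
      rw [eq_comm, G.xg_eq_one_iff hs'] at h2
      simp [h2, G'.xg_zero]
    · have hc : a ^ D.cartan i (D.reflectRoot i s) * ((G.tab.eta i s : F) * t) ≠ 0 :=
        mul_ne_zero (zpow_ne_zero _ ha) (mul_ne_zero (left_ne_zero_of_mul_eq_one (G.eta_cast_sq i s)) ht)
      obtain rfl := xg_eq_of_ne_zero G hr hs' hc h2
      rw [G.xg_injective hr h2]

variable {C : Cert}

/-- The multiplier is cyclic of the order of the kernel of the torus map. -/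
theorem hasCyclicSchurMultiplier_of_emb (h : chkEmb D G.tab D' G'.tab N = true)
    (hC : chkSimply D G.tab C = true) [Fintype F] {K : CoverCert} (hK : chkCover D G.tab K = true)
    (hinj' : ∀ z : Fin D'.rank → Fˣ, G'.torus z = 1 → z = 1) {n : ℕ}
    (hn : n = Nat.gcd K.d (Fintype.card F - 1)) :
    Cfsg.HasCyclicSchurMultiplier ↥(D.group F) n := by
  have R := rootLift_pair (F := F) h
  obtain ⟨e⟩ := nonempty_zmod_equiv (F := F) G hK hn
  set π := MonoidHom.snd (GL D'.Idx F) (GL D.Idx F) with hπ
  have hmem : ∀ x ∈ R.gen, π x ∈ D.group F := by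
    intro x hx
    induction hx using Subgroup.closure_induction with
    | mem x hx => obtain ⟨r, t, hr, rfl⟩ := hx; exact G.xg_mem_group r t
    | one => simp
    | mul a b _ _ ha hb => rw [map_mul]; exact mul_mem ha hb
    | inv a _ ha => rw [map_inv]; exact inv_mem ha
  let σ : ↥R.gen →* ↥(D.group F) := (π.comp R.gen.subtype).codRestrict _ fun x => hmem x x.2
  have hperf : ∀ x : ↥R.gen, x ∈ commutator ↥R.gen := by
    rintro ⟨x, hx⟩
    induction hx using Subgroup.closure_induction with
    | mem x hx =>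
      obtain ⟨r, t, hr, rfl⟩ := hx
      obtain ⟨p, q, ε, hd, -⟩ := exists_dec G hC hr
      have e1 : ⁅pairL G G' N p ((ε : F) * t), pairL G G' N q 1⁆ = pairL G G' N r t := by
        rw [R.commutator_dec hd, ← mul_assoc, sign_mul_self hd.2.2.2.2.2.1, one_mul, mul_one]
      rw [commutator_def]
      convert Subgroup.commutator_mem_commutator
        (Subgroup.mem_top (⟨_, Subgroup.subset_closure ⟨p, (ε : F) * t, hd.2.1, rfl⟩⟩ : ↥R.gen))
        (Subgroup.mem_top (⟨_, Subgroup.subset_closure ⟨q, (1 : F), hd.2.2.1, rfl⟩⟩ : ↥R.gen)) using 1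
      exact Subtype.ext e1.symm
    | one => exact one_mem _
    | mul a b ha hb iha ihb => exact mul_mem iha ihb
    | inv a ha iha => exact inv_mem iha
  have hker : ∀ x : ↥R.gen, x ∈ σ.ker ↔ π x.1 = 1 := fun x =>
    ⟨fun h => congrArg Subtype.val (MonoidHom.mem_ker.1 h), fun h => MonoidHom.mem_ker.2 (Subtype.ext h)⟩
  have hσ : Cfsg.IsStemExtension σ := by
    refine ⟨fun g => ?_, fun x hx => Subgroup.mem_center_iff.2 fun y => ?_, fun x _ => hperf x⟩
    · have hle : D.group F ≤ R.gen.map π := G.group_le fun r hr t =>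
        ⟨_, Subgroup.subset_closure ⟨r, t, hr, rfl⟩, rfl⟩
      obtain ⟨m, hm, hm'⟩ := hle g.2
      exact ⟨⟨m, hm⟩, Subtype.ext hm'⟩
    · exact Subtype.ext (R.commute_gen_of_map x.2 ((hker x).1 hx) y.2).eq.symm
  let φ : (G.torus (F := F)).ker →* σ.ker :=
    ((R.torusHom.comp (G.torus (F := F)).ker.subtype).codRestrict R.gen fun z => R.torusHom_mem_gen z.1).codRestrict
      σ.ker fun z => (hker _).2 (by
        show π (R.torusHom z.1) = 1
        rw [R.map_torusHom]; exact z.2)
  have hφ : Function.Bijective φ := by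
    refine ⟨fun a b hab => ?_, fun k => ?_⟩
    · have hfst : ∀ z : Fin D.rank → Fˣ, (R.torusHom z).1 =
          G'.torus (fun m : Fin D'.rank => if hm : m.val < D.rank then z ⟨m, hm⟩ else 1) := by
        have h' := h
        simp only [chkEmb, Bool.and_eq_true, List.all_eq_true, List.mem_range, Bool.or_eq_true, Nat.beq_eq,
          decide_eq_true_eq, Bool.not_eq_true', Nat.ble_eq, Nat.blt_eq] at h'
        obtain ⟨⟨⟨hrank, hsimple⟩, hroot⟩, -⟩ := h'
        let ext : (Fin D.rank → Fˣ) →* (Fin D'.rank → Fˣ) :=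
          { toFun := fun z m => if hm : m.val < D.rank then z ⟨m, hm⟩ else 1
            map_one' := by funext m; by_cases hm : m.val < D.rank <;> simp [hm]
            map_mul' := fun a b => by funext m; by_cases hm : m.val < D.rank <;> simp [hm] }
        suffices he : (MonoidHom.fst _ _).comp R.torusHom = G'.torus.comp ext from
          fun z => DFunLike.congr_fun he z
        refine MonoidHom.pi_ext fun k c => ?_
        have hext : ext (Pi.mulSingle k c) = Pi.mulSingle (Fin.castLE hrank k) c := by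
          funext m
          show (if hm : m.val < D.rank then (Pi.mulSingle k c : Fin D.rank → Fˣ) ⟨m, hm⟩ else 1) = _
          by_cases hm : m.val < D.rank
          · by_cases hk : m.val = k.val
            · obtain rfl : m = Fin.castLE hrank k := Fin.ext hk
              simp
            · rw [dif_pos hm, Pi.mulSingle_eq_of_ne (fun e => hk (congrArg Fin.val e)),
                Pi.mulSingle_eq_of_ne (fun e => hk (by rw [e]; rfl))]
          · rw [dif_neg hm, Pi.mulSingle_eq_of_ne (fun e => hm (by rw [e]; exact k.2))]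
        rw [MonoidHom.comp_apply, MonoidHom.comp_apply, R.torusHom_mulSingle, hext, G'.torus_mulSingle]
        have hs := G.simple_lt k.2
        have hn' : embIdx N (D.neg (D.simple k)) = D'.neg (D'.simple k) := by
          have h1 := (hroot _ hs).1
          rw [hsimple k k.2] at h1
          rw [G.neg_eq hs, h1.2, G'.neg_eq h1.1]
        show (hh D (pairL G G' N) (D.simple k) (c : F)).1 = G'.hg (D'.simple (Fin.castLE hrank k)) (c : F)
        simp only [hh, nn, pairL, Prod.mk_mul_mk, hn', hsimple k k.2, Fin.val_castLE]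
        rfl
      have e1 : (R.torusHom a.1).1 = (R.torusHom b.1).1 :=
        congrArg (fun k : σ.ker => (k.1.1).1) hab
      rw [hfst, hfst] at e1
      have e2 := hinj' _ (show G'.torus ((fun m : Fin D'.rank => if hm : m.val < D.rank then a.1 ⟨m, hm⟩ else 1) *
        (fun m : Fin D'.rank => if hm : m.val < D.rank then b.1 ⟨m, hm⟩ else 1)⁻¹) = 1 by
          rw [map_mul, map_inv, e1, mul_inv_cancel])
      refine Subtype.ext (funext fun k => ?_)
      have h' := h
      simp only [chkEmb, Bool.and_eq_true, List.all_eq_true, List.mem_range, Nat.ble_eq] at h'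
      have e3 := congrFun e2 (Fin.castLE h'.1.1.1 k)
      simpa [mul_inv_eq_one] using e3
    · obtain ⟨z, hz, e'⟩ := R.exists_torus_of_map k.1.2 ((hker k.1).1 k.2)
      exact ⟨⟨z, hz⟩, Subtype.ext (Subtype.ext e')⟩
  refine ⟨⟨↥R.gen, inferInstance, inferInstance, σ, hσ, ⟨(MulEquiv.ofBijective φ hφ).symm.trans e.symm⟩⟩,
    fun Γ _ _ σ' hσ' => ?_⟩
  obtain ⟨ψ, hψ⟩ := exists_surjective_ker hC hσ'
  exact ⟨ψ.comp e.toMonoidHom, hψ.comp e.surjective⟩

end Cfsg.Agent.H82.Chev
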